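import Mathlib
import Cfsg.Agent.Lib.Helper70.OPar.Defs
import Cfsg.Agent.Lib.Helper15.OHyp.Invol

/-!
# OPAR (S5989), package [INV1]

An involution of the isometry group of a nondegenerate quadratic form (odd characteristic) in
dimension `≥ 2 m + 2` fixes a member of the family of nondegenerate `m`-spaces isometric to `W₀`:
one of the two eigenspaces has dimension `≥ m + 1`, and [GEOMISO] finds a member inside it.
-/

set_option autoImplicit false
open scoped MatrixGroups
open Matrix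

namespace Cfsg.Agent.Lib.Helper15.OPar

open Cfsg.Agent.Lib.Helper23.OHyp Cfsg.Agent.Lib.Helper70.OPar Cfsg.Agent.Lib.Helper15.OHyp

universe u

section eig

set_option linter.unusedSectionVars false

variable {F : Type u} [Field F] {ι : Type} [Fintype ι] [DecidableEq ι]
variable {Q : (ι → F) → F}

/-- The `ε`-eigenspace of the matrix `X`. -/
def eigSp (X : Matrix ι ι F) (ε : F) : Submodule F (ι → F) :=
  LinearMap.ker (Matrix.toLin' X - ε • (1 : (ι → F) →ₗ[F] (ι → F)))

theorem mem_eigSp (X : Matrix ι ι F) (ε : F) (v : ι → F) :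
    v ∈ eigSp X ε ↔ X *ᵥ v = ε • v := by
  unfold eigSp
  rw [LinearMap.mem_ker, LinearMap.sub_apply, Matrix.toLin'_apply, LinearMap.smul_apply,
    Module.End.one_apply, sub_eq_zero]

/-- the eigenspaces of an involutory isometry are nondegenerate -/
theorem nd_eigSp (hQ : Cfsg.Geo.IsNondegenerateQuadraticForm Q) (h2 : (2 : F) ≠ 0)
    {X : Matrix ι ι F} (hiso : ∀ v, Q (X *ᵥ v) = Q v) (hXX : X * X = 1)
    (ε : F) (hε : ε * ε = 1) : Nd Q (eigSp X ε) := by
  have hB := hQ.polar_bilinear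
  have key : ∀ v ∈ eigSp X ε, v ≠ 0 → ∃ y ∈ eigSp X ε, QuadraticMap.polar Q y v ≠ 0 := by
    intro v hv hv0
    rw [mem_eigSp] at hv
    obtain ⟨⟨y, hy⟩, -⟩ := hQ.nondegenerate v hv0
    have hXXy : X *ᵥ (X *ᵥ y) = y := by
      rw [Matrix.mulVec_mulVec, hXX, Matrix.one_mulVec]
    refine ⟨y + ε • (X *ᵥ y), ?_, ?_⟩
    · rw [mem_eigSp, Matrix.mulVec_add, Matrix.mulVec_smul, hXXy, smul_add, smul_smul, hε,
        one_smul, add_comm]
    · have h1 : QuadraticMap.polar Q (X *ᵥ y) v = ε * QuadraticMap.polar Q y v := by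
        have h := B_isom hiso (X *ᵥ y) v
        rw [hXXy, hv, hB.smul_right] at h
        exact h.symm
      rw [hB.add_left, hB.smul_left, h1, ← mul_assoc, hε, one_mul]
      intro h0
      have : (2 : F) * QuadraticMap.polar Q y v = 0 := by linear_combination h0
      rcases mul_eq_zero.mp this with h | h
      · exact h2 h
      · exact hy h
  intro v hv hv0
  obtain ⟨y, hy, hne⟩ := key v hv hv0
  exact ⟨⟨y, hy, hne⟩, ⟨y, hy, by rwa [QuadraticMap.polar_comm]⟩⟩

/-- the two eigenspaces of an involution are complementary -/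
theorem isCompl_eigSp (h2 : (2 : F) ≠ 0) {X : Matrix ι ι F} (hXX : X * X = 1) :
    IsCompl (eigSp X 1) (eigSp X (-1)) := by
  constructor
  · rw [Submodule.disjoint_def]
    intro v h1 h2'
    rw [mem_eigSp] at h1 h2'
    rw [h1, one_smul, neg_one_smul] at h2'
    have h3 : (2 : F) • v = 0 := by
      rw [two_smul]
      nth_rewrite 1 [h2']
      exact neg_add_cancel v
    rcases smul_eq_zero.mp h3 with h | h
    · exact absurd h h2
    · exact h
  · rw [codisjoint_iff, eq_top_iff]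
    intro v _
    have hXXv : X *ᵥ (X *ᵥ v) = v := by
      rw [Matrix.mulVec_mulVec, hXX, Matrix.one_mulVec]
    have hv : v = (2 : F)⁻¹ • (v + X *ᵥ v) + (2 : F)⁻¹ • (v - X *ᵥ v) := by
      rw [← smul_add]
      have : v + X *ᵥ v + (v - X *ᵥ v) = (2 : F) • v := by rw [two_smul]; abel
      rw [this, smul_smul, inv_mul_cancel₀ h2, one_smul]
    rw [hv]
    refine Submodule.add_mem_sup (Submodule.smul_mem _ _ ?_) (Submodule.smul_mem _ _ ?_)
    · rw [mem_eigSp, Matrix.mulVec_add, hXXv, one_smul, add_comm]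
    · rw [mem_eigSp, Matrix.mulVec_sub, hXXv, neg_one_smul, neg_sub]

/-- subspaces of an eigenspace are invariant -/
theorem inv_of_le_eigSp {X : Matrix ι ι F} {ε : F} {W : Submodule F (ι → F)}
    (hW : W ≤ eigSp X ε) : Inv X W := by
  rintro _ ⟨w, hw, rfl⟩
  have := (mem_eigSp X ε w).mp (hW hw)
  rw [Matrix.toLin'_apply, this]
  exact W.smul_mem _ hw

end eig

theorem pkgInv1_of (hG : PkgGeomIso.{u}) : PkgInv1.{u} := by
  intro F _ _ ι _ _ Q hQ h2 x hx hx2 W₀ m hm hn hW₀ hNd₀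
  have hiso : ∀ v, Q ((x : Matrix ι ι F) *ᵥ v) = Q v := fun v => hx v v
  have hXX : (x : Matrix ι ι F) * (x : Matrix ι ι F) = 1 := by
    have h := congrArg (fun g : GL ι F => (g : Matrix ι ι F)) hx2
    simpa [pow_two] using h
  have hcompl := isCompl_eigSp h2 hXX
  have hsum := Submodule.finrank_add_eq_of_isCompl hcompl
  rw [Module.finrank_fintype_fun_eq_card] at hsum
  -- an eigenspace of dimension at least `m + 1`
  have hex : ∃ ε : F, ε * ε = 1 ∧ m + 1 ≤ Module.finrank F (eigSp (x : Matrix ι ι F) ε) := by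
    by_cases h1 : m + 1 ≤ Module.finrank F (eigSp (x : Matrix ι ι F) 1)
    · exact ⟨1, by ring, h1⟩
    · exact ⟨-1, by ring, by omega⟩
  obtain ⟨ε, hε, hdim⟩ := hex
  have hNdC := nd_eigSp hQ h2 hiso hXX ε hε
  have hNdbot : Nd Q (⊥ : Submodule F (ι → F)) := by
    intro w hw hw0
    exact absurd ((Submodule.mem_bot F).mp hw) hw0
  have hPerp : Perp Q (eigSp (x : Matrix ι ι F) ε) ⊥ := by
    intro u _ v hv
    rw [(Submodule.mem_bot F).mp hv]
    exact B_zero_right hQ u
  obtain ⟨W₁, hW₁C, hW₁nd, hW₁dim, hW₁iso⟩ :=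
    hG F ι Q hQ h2 (eigSp (x : Matrix ι ι F) ε) ⊥ W₀ hNdC hNdbot hPerp hNd₀ m hm hdim
      (by rw [finrank_bot, add_zero, hW₀])
  rw [sup_bot_eq] at hW₁iso
  exact ⟨W₁, ⟨hW₁dim, hW₁nd, hW₁iso⟩, inv_of_le_eigSp hW₁C⟩

end Cfsg.Agent.Lib.Helper15.OPar
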