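import Mathlib
import Cfsg.Agent.Lib.Helper70.OPar.Defs

/-!
# OPAR (S5989), package [TWO]

The case `r = 2`: every non-scalar element of `Ω(Q)` with scalar square fixes a member iff `Ω(Q)`
has no element of square `-1`.  From the packages [SCAL], [INV1], [INV2].
-/

set_option autoImplicit false
open scoped MatrixGroups
open Matrix

namespace Cfsg.Agent.Lib.Helper15.OPar

open Cfsg.Agent.Lib.Helper23.OHyp Cfsg.Agent.Lib.Helper70.OPar

universe u

theorem pkgTwo_of (hS : PkgScal.{u}) (h1 : PkgInv1.{u}) (h2 : PkgInv2.{u}) : PkgTwo.{u} := by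
  intro F _ _ ι _ _ Q hQ h2F W₀ m hodd hn hW₀ hNd₀
  have hne : Nonempty ι := by
    rw [← Fintype.card_pos_iff]; omega
  have hmem_iso : ∀ x : GL ι F, x ∈ Cfsg.Geo.omegaGL Q → x ∈ Cfsg.isometryGroup F Q := by
    intro x hx
    obtain ⟨y, -, rfl⟩ := Subgroup.mem_map.mp hx
    exact y.2
  have hone : ∀ z : F, ((z • (1 : Matrix ι ι F)) * (z • (1 : Matrix ι ι F))) =
      (z * z) • (1 : Matrix ι ι F) := by
    intro z
    rw [Matrix.smul_mul, Matrix.mul_smul, Matrix.one_mul, smul_smul]
  have hscal_inj : ∀ a b : F, a • (1 : Matrix ι ι F) = b • (1 : Matrix ι ι F) → a = b := by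
    intro a b hab
    obtain ⟨i⟩ := hne
    have := congrFun (congrFun hab i) i
    simpa using this
  constructor
  · rintro hfix ⟨x, hxΩ, hxx⟩
    have hxi := hmem_iso x hxΩ
    have hiso : ∀ v, Q ((x : Matrix ι ι F) *ᵥ v) = Q v := fun v => hxi v v
    have hns : ∀ z : F, (x : Matrix ι ι F) ≠ z • (1 : Matrix ι ι F) := by
      intro z hz
      have hzz : z * z = 1 := hS F ι Q hQ z (by intro v; rw [← hz]; exact hiso v)
      rw [hz, hone, hzz, one_smul] at hxx
      have h3 : (1 : F) • (1 : Matrix ι ι F) = (-1 : F) • (1 : Matrix ι ι F) := by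
        rw [one_smul, neg_one_smul]; exact hxx
      have h11 := hscal_inj _ _ h3
      apply h2F
      linear_combination h11
    obtain ⟨W, hW, hWinv⟩ := hfix x hxΩ
      ⟨-1, by rw [neg_one_smul]; simpa [pow_two] using hxx⟩ hns
    have heven := h2 F ι Q hQ h2F (x : Matrix ι ι F) hiso hxx W hWinv hW.2.1
    rw [hW.1] at heven
    exact (Nat.not_even_iff_odd.mpr hodd) heven
  · rintro hno x hxΩ ⟨z, hz⟩ hns
    have hxi := hmem_iso x hxΩ
    have hiso : ∀ v, Q ((x : Matrix ι ι F) *ᵥ v) = Q v := fun v => hxi v v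
    have hxx : (x : Matrix ι ι F) * (x : Matrix ι ι F) = z • (1 : Matrix ι ι F) := by
      rw [← hz]; simp [pow_two]
    have hzz : z * z = 1 := hS F ι Q hQ z (by
      intro v
      rw [← hxx, ← Matrix.mulVec_mulVec, hiso, hiso])
    have hz1 : z = 1 ∨ z = -1 := by
      have : (z - 1) * (z + 1) = 0 := by linear_combination hzz
      rcases mul_eq_zero.mp this with h | h
      · left; linear_combination h
      · right; linear_combination h
    rcases hz1 with rfl | rfl
    · have hx2 : x ^ 2 = 1 := by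
        apply Units.ext
        rw [hz, one_smul]; rfl
      obtain ⟨W, hW, hWinv⟩ := h1 F ι Q hQ h2F x hxi hx2 W₀ m
        (by obtain ⟨k, hk⟩ := hodd; omega) hn hW₀ hNd₀
      exact ⟨W, hW, hWinv⟩
    · exfalso
      apply hno
      refine ⟨x, hxΩ, ?_⟩
      rw [hxx, neg_one_smul]

end Cfsg.Agent.Lib.Helper15.OPar
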